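import Mathlib
import Cfsg.Agent.Lib.Helper50.CAI.Defs
import Cfsg.Agent.S1230

/-!
# S2202 (CAI) package [PSL]: the quotient by the common odd part is `PSL₂`
-/

set_option autoImplicit false

namespace Cfsg.Agent.Lib.Helper67.CAI

open Cfsg.Agent.Lib.Helper50.CAI

universe u

theorem pkgPSL (hB : PkgBasic.{u}) (hQuot : PkgQuot.{u}) (hZ : PkgZ.{u}) (hZas : PkgZas.{u})
    (hElem : PkgElem.{u}) : PkgPSL.{u} := by
  intro G _ _ hyp B _ hBz
  classical
  have : Fact (Nat.Prime 2) := ⟨Nat.prime_two⟩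
  obtain ⟨hyp', -, -, hBz', -⟩ := hQuot hyp B (fun P => (hBz P).ge)
  have hbot : ∀ P' : Sylow 2 (G ⧸ B), Bz P' = ⊥ := by
    intro P'
    obtain ⟨P, hP⟩ := hBz' P'
    rw [hP, hBz P, Subgroup.map_eq_bot_iff, QuotientGroup.ker_mk']
  have hbti : BTI (G ⧸ B) := by
    intro P Q _ x hx _
    rw [hbot P] at hx
    exact Subgroup.mem_bot.mp hx
  have zf := hZ hyp' hbti
  have hzas := hZas hyp' hbti zf
  have helem := hElem hyp' hbti zf hzas
  obtain ⟨T⟩ : Nonempty (Sylow 2 (G ⧸ B)) := inferInstance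
  obtain ⟨F, hF1, hF2, hcard, hiso⟩ :=
    Cfsg.Agent.S1230.result T (hyp'.ncyc T) (hyp'.nnorm T) (by
      intro t ht
      have hp : IsPGroup 2 (Subgroup.zpowers t) :=
        IsPGroup.of_card (n := 1) (by rw [Nat.card_zpowers, ht, pow_one])
      obtain ⟨P', hP'⟩ := hp.exists_le_sylow
      have bf := hB hyp' P'
      have hc := bf.cent t (hP' (Subgroup.mem_zpowers t)) ht
      refine ⟨hyp'.ca t ht, ?_⟩
      intro c hcm
      rw [hc] at hcm
      exact helem P' c hcm)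
  obtain ⟨k, hk⟩ := IsPGroup.iff_card.mp T.2
  have hk2 : 2 ≤ k := by
    by_contra hlt
    apply hyp'.ncyc T
    have hk01 : k = 0 ∨ k = 1 := by omega
    rcases hk01 with h0 | h1
    · rw [h0, pow_zero] at hk
      have : Subsingleton ↥(T : Subgroup (G ⧸ B)) := (Nat.card_eq_one_iff_unique.mp hk).1
      exact isCyclic_of_subsingleton
    · rw [h1, pow_one] at hk
      exact isCyclic_of_prime_card hk
  have hcardF : @Fintype.card F hF2 = 2 ^ k := by rw [hcard, hk]
  refine ⟨F, hF1, hF2, ?_, ?_, hiso⟩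
  · have h0 : ((2 : F)) ^ k = 0 := by
      have h1 := @Nat.cast_card_eq_zero F _ hF2
      rw [hcardF] at h1
      exact_mod_cast h1
    have h2 : (2 : F) = 0 := by
      exact (pow_eq_zero_iff (by omega)).mp h0
    exact CharTwo.of_one_ne_zero_of_two_eq_zero one_ne_zero h2
  · rw [hcardF]
    calc 4 = 2 ^ 2 := by norm_num
      _ ≤ 2 ^ k := Nat.pow_le_pow_right (by norm_num) hk2

end Cfsg.Agent.Lib.Helper67.CAI
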